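import Cfsg.Agent.Lib.Char.Brauer

/-!
# Representations over subfields of the complex numbers
-/

set_option autoImplicit false
set_option linter.unusedSectionVars false
set_option linter.unusedVariables false
set_option linter.style.haveILetI false

open scoped ComplexConjugate
open Module

namespace Cfsg.Agent.Lib.SplitField

open Cfsg (classInner IsCharacter IsIrrCharacter IrrCharacter IsClassFunction indFun extendByZero)
open Cfsg.Agent.Lib.Char

universe u v

variable {G : Type u} [Group G]
variable {K : Type} [Field K] [Algebra K ℂ]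

lemma card_ne_zero_K [Finite G] : (Nat.card G : K) ≠ 0 := by
  intro h
  have h2 := congrArg (algebraMap K ℂ) h
  rw [map_natCast, map_zero] at h2
  exact card_ne_zero_complex G h2

lemma trace_of_isCompl_K {V : Type} [AddCommGroup V] [Module K V] [FiniteDimensional K V]
    (T : Module.End K V) (U W : Submodule K V) (h : IsCompl U W)
    (hU : Set.MapsTo T U U) (hW : Set.MapsTo T W W) :
    LinearMap.trace K V T =
      LinearMap.trace K U (T.restrict hU) + LinearMap.trace K W (T.restrict hW) := by
  classical
  let A : Bool → Submodule K V := fun b => if b then U else W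
  have hint : DirectSum.IsInternal A := by
    rw [DirectSum.isInternal_submodule_iff_isCompl A (i := true) (j := false) (by simp)
      (by ext b; cases b <;> simp)]
    simpa [A] using h
  have hA : ∀ b, Set.MapsTo T (A b) (A b) := by
    intro b
    cases b
    · simpa [A] using hW
    · simpa [A] using hU
  rw [LinearMap.trace_eq_sum_trace_restrict hint hA]
  simp only [Fintype.sum_bool]
  rfl

theorem exists_compl_subrep_K [Finite G] {V : Type} [AddCommGroup V] [Module K V]
    (ρ : Representation K G V) (U : Subrepresentation ρ) :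
    ∃ W : Subrepresentation ρ, IsCompl U.toSubmodule W.toSubmodule := by
  have : NeZero (Nat.card G : K) := ⟨card_ne_zero_K⟩
  obtain ⟨W, hW⟩ := exists_isCompl U
  refine ⟨W, ?_, ?_⟩
  · rw [disjoint_iff]
    exact congrArg Subrepresentation.toSubmodule hW.disjoint.eq_bot
  · rw [codisjoint_iff]
    exact congrArg Subrepresentation.toSubmodule hW.codisjoint.eq_top

theorem isIrreducible_iff_K {V : Type} [AddCommGroup V] [Module K V] (ρ : Representation K G V) :
    ρ.IsIrreducible ↔ Nontrivial V ∧
      ∀ U : Submodule K V, (∀ g, ∀ v ∈ U, ρ g v ∈ U) → U = ⊥ ∨ U = ⊤ := by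
  constructor
  · intro h
    refine ⟨?_, ?_⟩
    · have h1 : (⊥ : Subrepresentation ρ) ≠ ⊤ := bot_ne_top
      by_contra hV
      rw [not_nontrivial_iff_subsingleton] at hV
      apply h1
      apply Subrepresentation.toSubmodule_injective
      exact Subsingleton.elim _ _
    · intro U hU
      let S : Subrepresentation ρ := ⟨U, fun g v hv => hU g v hv⟩
      rcases h.eq_bot_or_eq_top S with h1 | h1
      · left
        exact congrArg Subrepresentation.toSubmodule h1
      · right
        exact congrArg Subrepresentation.toSubmodule h1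
  · rintro ⟨hV, h⟩
    have : Nontrivial (Subrepresentation ρ) := by
      refine ⟨⟨⊥, ⊤, fun h0 => ?_⟩⟩
      have : (⊥ : Submodule K V) = ⊤ := congrArg Subrepresentation.toSubmodule h0
      exact bot_ne_top this
    refine ⟨fun S => ?_⟩
    rcases h S.toSubmodule (fun g v hv => S.apply_mem_toSubmodule g hv) with h1 | h1
    · left
      exact Subrepresentation.toSubmodule_injective h1
    · right
      exact Subrepresentation.toSubmodule_injective h1

/-- Induction principle for representations over `K`. -/
theorem rep_induction_K [Finite G]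
    {P : (V : Type) → [AddCommGroup V] → [Module K V] → [FiniteDimensional K V] →
      Representation K G V → Prop}
    (hzero : ∀ (V : Type) [AddCommGroup V] [Module K V] [FiniteDimensional K V]
      (ρ : Representation K G V), Subsingleton V → P V ρ)
    (hirr : ∀ (V : Type) [AddCommGroup V] [Module K V] [FiniteDimensional K V]
      (ρ : Representation K G V), ρ.IsIrreducible → P V ρ)
    (hcompl : ∀ (V : Type) [AddCommGroup V] [Module K V] [FiniteDimensional K V]
      (ρ : Representation K G V) (U W : Subrepresentation ρ),
      IsCompl U.toSubmodule W.toSubmodule →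
      P U.toSubmodule U.toRepresentation → P W.toSubmodule W.toRepresentation → P V ρ)
    (V : Type) [AddCommGroup V] [Module K V] [FiniteDimensional K V]
    (ρ : Representation K G V) : P V ρ := by
  induction hn : finrank K V using Nat.strong_induction_on generalizing V with
  | _ n ih =>
    by_cases hV : Subsingleton V
    · exact hzero V ρ hV
    by_cases hρ : ρ.IsIrreducible
    · exact hirr V ρ hρ
    rw [not_subsingleton_iff_nontrivial] at hV
    have h1 : ∃ U : Submodule K V, (∀ g, ∀ v ∈ U, ρ g v ∈ U) ∧ U ≠ ⊥ ∧ U ≠ ⊤ := by
      by_contra hcon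
      push Not at hcon
      exact hρ ((isIrreducible_iff_K ρ).mpr ⟨hV, fun U hU => by
        by_cases h : U = ⊥
        · exact Or.inl h
        · exact Or.inr (hcon U hU h)⟩)
    obtain ⟨U0, hinv, hbot, htop⟩ := h1
    let U : Subrepresentation ρ := ⟨U0, fun g _ hv => hinv g _ hv⟩
    obtain ⟨W, hW⟩ := exists_compl_subrep_K ρ U
    have hdim : finrank K U0 + finrank K W.toSubmodule = n := by
      rw [← hn]
      exact Submodule.finrank_add_eq_of_isCompl hW
    have hU0 : 0 < finrank K U0 := by
      rw [Nat.pos_iff_ne_zero]
      exact fun h0 => hbot (Submodule.finrank_eq_zero.mp h0)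
    have hWne : W.toSubmodule ≠ ⊥ := by
      intro h
      rw [h] at hW
      exact htop (by simpa using hW.sup_eq_top)
    have hW0 : 0 < finrank K W.toSubmodule := by
      rw [Nat.pos_iff_ne_zero]
      exact fun h0 => hWne (Submodule.finrank_eq_zero.mp h0)
    exact hcompl V ρ U W hW (ih _ (by omega) U0 U.toRepresentation rfl)
      (ih _ (by omega) W.toSubmodule W.toRepresentation rfl)

/-- The complex values of the character of a representation over `K`. -/
noncomputable def chC {V : Type} [AddCommGroup V] [Module K V] (ρ : Representation K G V) (g : G) : ℂ :=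
  algebraMap K ℂ (ρ.character g)

/-- Additivity. -/
theorem chC_of_isCompl {V : Type} [AddCommGroup V] [Module K V] [FiniteDimensional K V]
    (ρ : Representation K G V) (U W : Subrepresentation ρ) (h : IsCompl U.toSubmodule W.toSubmodule) :
    chC ρ = chC U.toRepresentation + chC W.toRepresentation := by
  funext g
  simp only [chC, Pi.add_apply, ← map_add]
  congr 1
  exact trace_of_isCompl_K (ρ g) U.toSubmodule W.toSubmodule h
    (fun _ hv => U.apply_mem_toSubmodule g hv) (fun _ hv => W.apply_mem_toSubmodule g hv)

/-- The complexification in matrix form. -/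
noncomputable def matC {V : Type} [AddCommGroup V] [Module K V] [FiniteDimensional K V]
    (ρ : Representation K G V) : Representation ℂ G (Fin (finrank K V) → ℂ) :=
  (Matrix.toLinAlgEquiv' (R := ℂ) (n := Fin (finrank K V))).toAlgHom.toMonoidHom.comp
    { toFun := fun g => (LinearMap.toMatrix (finBasis K V) (finBasis K V) (ρ g)).map (algebraMap K ℂ)
      map_one' := by
        rw [map_one, LinearMap.toMatrix_one]
        exact Matrix.map_one _ (map_zero _) (map_one _)
      map_mul' := by
        intro a b
        rw [map_mul]
        have : ρ a * ρ b = (ρ a).comp (ρ b) := rfl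
        rw [this, LinearMap.toMatrix_comp (finBasis K V) (finBasis K V) (finBasis K V)]
        exact Matrix.map_mul }

theorem matC_apply {V : Type} [AddCommGroup V] [Module K V] [FiniteDimensional K V]
    (ρ : Representation K G V) (g : G) :
    matC ρ g = Matrix.toLin' ((LinearMap.toMatrix (finBasis K V) (finBasis K V) (ρ g)).map (algebraMap K ℂ)) :=
  rfl

theorem matC_character {V : Type} [AddCommGroup V] [Module K V] [FiniteDimensional K V]
    (ρ : Representation K G V) : (matC ρ).character = chC ρ := by
  funext g
  show LinearMap.trace ℂ _ (matC ρ g) = algebraMap K ℂ (LinearMap.trace K V (ρ g))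
  rw [matC_apply, Matrix.trace_toLin'_eq, LinearMap.trace_eq_matrix_trace K (finBasis K V) (ρ g)]
  simp [Matrix.trace, map_sum]

theorem isCharacter_chC {V : Type} [AddCommGroup V] [Module K V] [FiniteDimensional K V]
    (ρ : Representation K G V) : IsCharacter G (chC ρ) :=
  ⟨_, matC ρ, matC_character ρ⟩

section Inner

variable [Fintype G]

theorem classInner_chC {V W : Type} [AddCommGroup V] [Module K V] [FiniteDimensional K V]
    [AddCommGroup W] [Module K W] [FiniteDimensional K W]
    (ρ : Representation K G V) (σ : Representation K G W) :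
    classInner (chC σ) (chC ρ) = finrank K (Representation.IntertwiningMap ρ σ) := by
  haveI : Invertible (Nat.card G : K) := invertibleOfNonzero card_ne_zero_K
  have h := Representation.card_inv_mul_sum_char_mul_char_eq_finrank (k := K) ρ σ
  have h2 := congrArg (algebraMap K ℂ) h
  rw [map_natCast, map_mul, map_inv₀, map_natCast, map_sum] at h2
  rw [← h2]
  rw [Cfsg.Agent.Lib.Char.classInner_def]
  congr 1
  refine Finset.sum_congr rfl fun g _ => ?_
  rw [map_mul, ← IsCharacter.map_inv' (isCharacter_chC ρ) g]
  rfl

theorem chC_eq_of_irr {V W : Type} [AddCommGroup V] [Module K V] [FiniteDimensional K V]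
    [AddCommGroup W] [Module K W] [FiniteDimensional K W]
    (ρ : Representation K G V) (σ : Representation K G W) (hρ : ρ.IsIrreducible) (hσ : σ.IsIrreducible)
    (h : classInner (chC σ) (chC ρ) ≠ 0) : chC σ = chC ρ := by
  rw [classInner_chC] at h
  have h1 : finrank K (Representation.IntertwiningMap ρ σ) ≠ 0 := by
    intro h0
    apply h
    rw [h0]
    simp
  obtain ⟨f, hf⟩ : ∃ f : Representation.IntertwiningMap ρ σ, f ≠ 0 := by
    by_contra hcon
    push Not at hcon
    have : Subsingleton (Representation.IntertwiningMap ρ σ) :=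
      ⟨fun a b => (hcon a).trans (hcon b).symm⟩
    exact h1 finrank_zero_of_subsingleton
  haveI := hρ
  haveI := hσ
  rcases Representation.IsIrreducible.bijective_or_eq_zero f with h2 | h2
  · have h3 := Representation.char_iso (f.ofBijective h2)
    funext g
    simp only [chC]
    rw [h3]
  · exact absurd h2 hf

/-- Common constituent. -/
theorem classInner_ne_zero_of_common {ψ ψ' χ : G → ℂ} (hψ : IsCharacter G ψ) (hψ' : IsCharacter G ψ')
    (hχ : IsIrrCharacter G χ) (h1 : classInner ψ χ ≠ 0) (h2 : classInner ψ' χ ≠ 0) :
    classInner ψ ψ' ≠ 0 := by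
  have h3 := isCharacter_sub_of_constituent hψ hχ h1
  have h4 := isCharacter_sub_of_constituent hψ' hχ h2
  have hχ' := IsIrrCharacter.isCharacter hχ
  obtain ⟨a, ha⟩ := classInner_isCharacter_nat hχ' h4
  obtain ⟨b, hb⟩ := classInner_isCharacter_nat h3 hχ'
  obtain ⟨c, hc⟩ := classInner_isCharacter_nat h3 h4
  have h5 : χ + (ψ - χ) = ψ := by simp
  have h6 : χ + (ψ' - χ) = ψ' := by simp
  have h7 : classInner ψ ψ' = 1 + a + b + c := by
    have h8 : classInner (χ + (ψ - χ)) (χ + (ψ' - χ)) = 1 + a + b + c := by
      rw [classInner_add_left, classInner_add_right, classInner_add_right, classInner_irr_self hχ, ha, hb, hc]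
      ring
    rwa [h5, h6] at h8
  rw [h7]
  have : ((1 + a + b + c : ℕ) : ℂ) ≠ 0 := by
    exact_mod_cast (by omega : 1 + a + b + c ≠ 0)
  push_cast at this
  exact this

/-- Divisibility of the multiplicities reduces to irreducible representations. -/
theorem dvd_of_irr (χ : G → ℂ) (m : ℕ)
    (h : ∀ (V : Type) [AddCommGroup V] [Module K V] [FiniteDimensional K V] (ρ : Representation K G V),
      ρ.IsIrreducible → ∃ n : ℕ, classInner (chC ρ) χ = ((m * n : ℕ) : ℂ))
    (V : Type) [AddCommGroup V] [Module K V] [FiniteDimensional K V] (ρ : Representation K G V) :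
    ∃ n : ℕ, classInner (chC ρ) χ = ((m * n : ℕ) : ℂ) := by
  refine rep_induction_K (K := K) (P := fun V _ _ _ ρ => ∃ n : ℕ, classInner (chC ρ) χ = ((m * n : ℕ) : ℂ))
    ?_ h ?_ V ρ
  · intro V _ _ _ ρ hV
    refine ⟨0, ?_⟩
    have h0 : chC ρ = 0 := by
      funext g
      have h1 : ρ g = 0 := Subsingleton.elim _ _
      simp [chC, Representation.character, h1]
    rw [h0, classInner_zero_left]
    simp
  · rintro V _ _ _ ρ U W hUW ⟨a, ha⟩ ⟨b, hb⟩
    refine ⟨a + b, ?_⟩
    rw [chC_of_isCompl ρ U W hUW, classInner_add_left, ha, hb]
    push_cast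
    ring

/-- Every representation with a constituent has an irreducible summand with that constituent. -/
theorem exists_irr_of_ne (χ : G → ℂ) (V : Type) [AddCommGroup V] [Module K V] [FiniteDimensional K V]
    (ρ : Representation K G V) (hne : classInner (chC ρ) χ ≠ 0) :
    ∃ (W : Type) (_ : AddCommGroup W) (_ : Module K W) (_ : FiniteDimensional K W) (σ : Representation K G W),
      σ.IsIrreducible ∧ classInner (chC σ) χ ≠ 0 := by
  revert hne
  refine rep_induction_K (K := K) (P := fun V _ _ _ ρ => classInner (chC ρ) χ ≠ 0 →
    ∃ (W : Type) (_ : AddCommGroup W) (_ : Module K W) (_ : FiniteDimensional K W) (σ : Representation K G W),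
      σ.IsIrreducible ∧ classInner (chC σ) χ ≠ 0) ?_ ?_ ?_ V ρ
  · intro V _ _ _ ρ hV h
    exfalso
    apply h
    have h0 : chC ρ = 0 := by
      funext g
      have h1 : ρ g = 0 := Subsingleton.elim _ _
      simp [chC, Representation.character, h1]
    rw [h0, classInner_zero_left]
  · intro V i1 i2 i3 ρ h1 h2
    exact ⟨V, i1, i2, i3, ρ, h1, h2⟩
  · intro V _ _ _ ρ U W hUW h1 h2 h3
    rw [chC_of_isCompl ρ U W hUW, classInner_add_left] at h3
    by_cases h4 : classInner (chC U.toRepresentation) χ = 0
    · rw [h4, zero_add] at h3
      exact h2 h3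
    · exact h1 h4

end Inner

end Cfsg.Agent.Lib.SplitField
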