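import Cfsg.Agent.Lib.SplitField.Mono

/-!
# Brauer's splitting field theorem
-/

set_option autoImplicit false
set_option linter.unusedSectionVars false
set_option linter.unusedVariables false
set_option linter.style.haveILetI false

open scoped ComplexConjugate
open Module

namespace Cfsg.Agent.Lib.SplitField

open Cfsg (classInner IsCharacter IsIrrCharacter IrrCharacter IsClassFunction indFun extendByZero IsElementary)
open Cfsg.Agent.Lib.Char

universe u v

variable {G : Type u} [Group G] [Fintype G]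
variable {K : Type} [Field K] [Algebra K ℂ]

/-- Character values lie in the field. -/
lemma char_mem (hroot : ∀ x : ℂ, x ^ Monoid.exponent G = 1 → x ∈ (algebraMap K ℂ).range)
    {χ : G → ℂ} (hχ : IsCharacter G χ) (g : G) : χ g ∈ (algebraMap K ℂ).range := by
  obtain ⟨n, R, rfl⟩ := hχ
  show LinearMap.trace ℂ _ (R g) ∈ _
  rw [Module.End.trace_eq_sum_roots_charpoly_of_splits (IsAlgClosed.splits _)]
  apply Subring.multiset_sum_mem
  intro μ hμ
  have h1 : (R g).charpoly.IsRoot μ := Polynomial.isRoot_of_mem_roots hμ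
  have h2 : Module.End.HasEigenvalue (R g) μ := (Module.End.hasEigenvalue_iff_isRoot_charpoly _ μ).mpr h1
  obtain ⟨v, hv⟩ := Module.End.HasEigenvalue.exists_hasEigenvector h2
  have h3 : ∀ k : ℕ, ((R g) ^ k) v = μ ^ k • v := by
    intro k
    induction k with
    | zero => simp
    | succ k ih =>
      rw [pow_succ', Module.End.mul_apply, ih, map_smul, hv.apply_eq_smul, smul_smul, pow_succ]
  have h4 : (R g) ^ Monoid.exponent G = 1 := by
    rw [← map_pow, Monoid.pow_exponent_eq_one, map_one]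
  have h5 := h3 (Monoid.exponent G)
  rw [h4, Module.End.one_apply] at h5
  have h6 : μ ^ Monoid.exponent G = 1 := by
    have h7 : (1 : ℂ) • v = μ ^ Monoid.exponent G • v := by rw [one_smul]; exact h5
    exact (smul_left_injective ℂ hv.2 h7).symm
  exact hroot μ h6

/-- Linear characters with values in the field. -/
noncomputable def toK (hroot : ∀ x : ℂ, x ^ Monoid.exponent G = 1 → x ∈ (algebraMap K ℂ).range)
    (E : Subgroup G) (lam : E →* ℂˣ) : E →* K :=
  have hmem : ∀ e : E, ((lam e : ℂˣ) : ℂ) ∈ (algebraMap K ℂ).range := by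
    intro e
    apply hroot
    have h1 : e ^ Monoid.exponent G = 1 := Subtype.ext (by simp [Monoid.pow_exponent_eq_one])
    rw [← Units.val_pow_eq_pow_val, ← map_pow, h1, map_one, Units.val_one]
  have hspec : ∀ e : E, algebraMap K ℂ (Classical.choose (hmem e)) = ((lam e : ℂˣ) : ℂ) :=
    fun e => Classical.choose_spec (hmem e)
  { toFun := fun e => Classical.choose (hmem e)
    map_one' := by
      apply (algebraMap K ℂ).injective
      rw [hspec, map_one, map_one, Units.val_one]
    map_mul' := by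
      intro a b
      apply (algebraMap K ℂ).injective
      have h1 : ((lam (a * b) : ℂˣ) : ℂ) = ((lam a : ℂˣ) : ℂ) * ((lam b : ℂˣ) : ℂ) := by
        rw [map_mul, Units.val_mul]
      show algebraMap K ℂ (Classical.choose (hmem (a * b))) =
        algebraMap K ℂ (Classical.choose (hmem a) * Classical.choose (hmem b))
      rw [hspec, h1, RingHom.map_mul, hspec, hspec] }

lemma toK_spec (hroot : ∀ x : ℂ, x ^ Monoid.exponent G = 1 → x ∈ (algebraMap K ℂ).range)
    (E : Subgroup G) (lam : E →* ℂˣ) (e : E) : algebraMap K ℂ (toK hroot E lam e) = ((lam e : ℂˣ) : ℂ) := by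
  have hmem : ((lam e : ℂˣ) : ℂ) ∈ (algebraMap K ℂ).range := by
    apply hroot
    have h1 : e ^ Monoid.exponent G = 1 := Subtype.ext (by simp [Monoid.pow_exponent_eq_one])
    rw [← Units.val_pow_eq_pow_val, ← map_pow, h1, map_one, Units.val_one]
  exact Classical.choose_spec hmem

/-- The linear combination of multiplicities given by a list. -/
lemma classInner_list (l : List ((E : Subgroup G) × ((E →* ℂˣ) × ℤ))) (χ : G → ℂ) :
    classInner (l.map fun t => (t.2.2 : ℂ) • indFun t.1 (fun e => (t.2.1 e : ℂ))).sum χ =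
      (l.map fun t => (t.2.2 : ℂ) * classInner (indFun t.1 (fun e => (t.2.1 e : ℂ))) χ).sum := by
  induction l with
  | nil => simp [classInner_zero_left]
  | cons a l ih =>
    simp only [List.map_cons, List.sum_cons]
    rw [classInner_add_left, classInner_smul_left, ih]

/-- Existence of an irreducible representation over `K` with multiplicity one. -/
theorem exists_irr_mult_one (hroot : ∀ x : ℂ, x ^ Monoid.exponent G = 1 → x ∈ (algebraMap K ℂ).range)
    {χ : G → ℂ} (hχ : IsIrrCharacter G χ) :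
    ∃ (V : Type) (_ : AddCommGroup V) (_ : Module K V) (_ : FiniteDimensional K V) (ρ : Representation K G V),
      ρ.IsIrreducible ∧ classInner (chC ρ) χ = 1 := by
  classical
  have hχ' := IsIrrCharacter.isCharacter hχ
  obtain ⟨l, -, hl⟩ := brauer_induction hχ'
  have hone : (l.map fun t => (t.2.2 : ℂ) * classInner (indFun t.1 (fun e => (t.2.1 e : ℂ))) χ).sum = 1 := by
    rw [← classInner_list, ← hl, classInner_irr_self hχ]
  have hind : ∀ t : ((E : Subgroup G) × ((E →* ℂˣ) × ℤ)),
      indFun t.1 (fun e => (t.2.1 e : ℂ)) = chC (monoRep t.1 (toK hroot t.1 t.2.1)) := by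
    intro t
    rw [chC_monoRep]
    congr 1
    funext e
    rw [toK_spec]
  -- some term does not vanish
  obtain ⟨t, ht⟩ : ∃ t ∈ l, classInner (indFun t.1 (fun e => (t.2.1 e : ℂ))) χ ≠ 0 := by
    by_contra hcon
    push Not at hcon
    have h0 : (l.map fun t => (t.2.2 : ℂ) * classInner (indFun t.1 (fun e => (t.2.1 e : ℂ))) χ).sum = 0 := by
      apply List.sum_eq_zero
      intro x hx
      obtain ⟨t, ht, rfl⟩ := List.mem_map.mp hx
      rw [hcon t ht, mul_zero]
    rw [h0] at hone
    exact zero_ne_one hone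
  rw [hind] at ht
  obtain ⟨W, i1, i2, i3, σ, hσ, hσχ⟩ := exists_irr_of_ne χ _ _ ht.2
  refine ⟨W, i1, i2, i3, σ, hσ, ?_⟩
  obtain ⟨m, hm⟩ := classInner_isCharacter_nat (isCharacter_chC σ) hχ'
  have hirrdvd : ∀ (V : Type) [AddCommGroup V] [Module K V] [FiniteDimensional K V] (ρ : Representation K G V),
      ρ.IsIrreducible → ∃ n : ℕ, classInner (chC ρ) χ = ((m * n : ℕ) : ℂ) := by
    intro V _ _ _ ρ hρ
    by_cases h0 : classInner (chC ρ) χ = 0
    · exact ⟨0, by simp [h0]⟩
    · refine ⟨1, ?_⟩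
      have h1 := classInner_ne_zero_of_common (isCharacter_chC σ) (isCharacter_chC ρ) hχ hσχ h0
      rw [← chC_eq_of_irr ρ σ hρ hσ h1, hm]
      simp
  have hdvd : ∀ t ∈ l, ∃ n : ℕ, classInner (indFun t.1 (fun e => (t.2.1 e : ℂ))) χ = ((m * n : ℕ) : ℂ) := by
    intro t _
    rw [hind]
    exact dvd_of_irr χ m hirrdvd _ _
  have hsum : ∃ z : ℤ, (l.map fun t => (t.2.2 : ℂ) * classInner (indFun t.1 (fun e => (t.2.1 e : ℂ))) χ).sum =
      ((m * z : ℤ) : ℂ) := by
    clear hone ht hl
    induction l with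
    | nil => exact ⟨0, by simp⟩
    | cons a l ih =>
      obtain ⟨n, hn⟩ := hdvd a (List.mem_cons_self ..)
      obtain ⟨z, hz⟩ := ih (fun t ht => hdvd t (List.mem_cons_of_mem _ ht))
      refine ⟨a.2.2 * n + z, ?_⟩
      simp only [List.map_cons, List.sum_cons]
      rw [hz, hn]
      push_cast
      ring
  obtain ⟨z, hz⟩ := hsum
  rw [hone] at hz
  have hz' : (1 : ℤ) = m * z := by exact_mod_cast hz
  have hm1 : m = 1 := by
    have h1 : (m : ℤ) ∣ 1 := ⟨z, hz'⟩
    have h2 := Int.eq_one_of_dvd_one (by positivity) h1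
    exact_mod_cast h2
  rw [hm, hm1]
  simp

/-- An irreducible representation with multiplicity one affords the character. -/
theorem chC_eq_of_mult_one (hroot : ∀ x : ℂ, x ^ Monoid.exponent G = 1 → x ∈ (algebraMap K ℂ).range)
    {χ : G → ℂ} (hχ : IsIrrCharacter G χ) {V : Type} [AddCommGroup V] [Module K V] [FiniteDimensional K V]
    (ρ : Representation K G V) (hρ : ρ.IsIrreducible) (h1 : classInner (chC ρ) χ = 1) : chC ρ = χ := by
  classical
  have hχ' := IsIrrCharacter.isCharacter hχ
  have hψ := isCharacter_chC ρ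
  have hclassC := IsCharacter.isClassFunction hχ'
  have hval := fun x => char_mem (K := K) hroot hχ' x
  let κ : G → K := fun x => Classical.choose (hval x)
  have hκ : ∀ x, algebraMap K ℂ (κ x) = χ x := fun x => Classical.choose_spec (hval x)
  have inj := (algebraMap K ℂ).injective
  have hclass : ∀ x k : G, κ (x * k * x⁻¹) = κ k := by
    intro x k
    apply inj
    rw [hκ, hκ, hclassC]
  have hc : (Nat.card G : K) ≠ 0 := card_ne_zero_K
  have hcC : (Nat.card G : ℂ) ≠ 0 := card_ne_zero_complex G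
  let a : K := κ 1 / (Nat.card G : K)
  have ha : algebraMap K ℂ a = χ 1 / (Nat.card G : ℂ) := by
    simp only [a, map_div₀, map_natCast, hκ]
  let E : Module.End K V := ∑ h, (a * κ h⁻¹) • ρ h
  have hEapply : ∀ (x : G), E * ρ x = ∑ h, (a * κ h⁻¹) • ρ (h * x) := by
    intro x
    simp only [E, Finset.sum_mul, smul_mul_assoc, map_mul]
  have hcomm : ∀ x : G, E * ρ x = ρ x * E := by
    intro x
    rw [hEapply]
    simp only [E, Finset.mul_sum, mul_smul_comm, ← map_mul]
    rw [← Equiv.sum_comp (MulAut.conj x⁻¹).toEquiv (fun h => (a * κ h⁻¹) • ρ (x * h))]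
    refine Finset.sum_congr rfl fun k _ => ?_
    simp only [MulEquiv.toEquiv_eq_coe, EquivLike.coe_coe, MulAut.conj_apply]
    have h2 : (x⁻¹ * k * x⁻¹⁻¹)⁻¹ = x⁻¹ * k⁻¹ * x⁻¹⁻¹ := by group
    rw [h2, hclass]
    congr 2
    group
  have hcoef : ∀ g : G, ∑ k, (a * κ (k * g⁻¹)) * (a * κ k⁻¹) = a * κ g⁻¹ := by
    intro g
    apply inj
    rw [map_sum, map_mul, ha, hκ]
    have h3 := gen_orth hχ hχ' g⁻¹
    rw [classInner_irr_self hχ, mul_one] at h3
    have h4 : ∑ k, algebraMap K ℂ ((a * κ (k * g⁻¹)) * (a * κ k⁻¹)) =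
        (χ 1 / (Nat.card G : ℂ)) * ((χ 1 / (Nat.card G : ℂ)) * ∑ h, χ h⁻¹ * χ (h * g⁻¹)) := by
      rw [Finset.mul_sum, Finset.mul_sum]
      refine Finset.sum_congr rfl fun k _ => ?_
      rw [map_mul, map_mul, map_mul, ha, hκ, hκ]
      ring
    rw [h4]
    congr 1
    have h5 := map_one_ne_zero_of_irr hχ
    field_simp
    rw [mul_comm]
    rw [h3]
  have hidem : E * E = E := by
    have h2 : E * E = ∑ k, ∑ h, ((a * κ h⁻¹) * (a * κ k⁻¹)) • ρ (h * k) := by
      conv_lhs => rw [show E * E = E * ∑ k, (a * κ k⁻¹) • ρ k from rfl]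
      rw [Finset.mul_sum]
      refine Finset.sum_congr rfl fun k _ => ?_
      rw [mul_smul_comm, hEapply, Finset.smul_sum]
      refine Finset.sum_congr rfl fun h _ => ?_
      rw [smul_smul, mul_comm]
    have h3 : ∀ k : G, ∑ h, ((a * κ h⁻¹) * (a * κ k⁻¹)) • ρ (h * k) =
        ∑ g, ((a * κ (k * g⁻¹)) * (a * κ k⁻¹)) • ρ g := by
      intro k
      rw [← Equiv.sum_comp (Equiv.mulRight k⁻¹) (fun h => ((a * κ h⁻¹) * (a * κ k⁻¹)) • ρ (h * k))]
      refine Finset.sum_congr rfl fun g _ => ?_
      simp only [Equiv.coe_mulRight, mul_inv_rev, inv_inv, inv_mul_cancel_right]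
    rw [h2, Finset.sum_congr rfl fun k _ => h3 k, Finset.sum_comm]
    refine Finset.sum_congr rfl fun g _ => ?_
    rw [← Finset.sum_smul, hcoef]
  have h5 := map_one_ne_zero_of_irr hχ
  have hEne : E ≠ 0 := by
    intro h0
    have h3 : algebraMap K ℂ (LinearMap.trace K V E) = χ 1 := by
      have h4 : LinearMap.trace K V E = ∑ h, (a * κ h⁻¹) * ρ.character h := by
        simp only [E, map_sum, map_smul, smul_eq_mul]
        rfl
      rw [h4, map_sum]
      have h6 := gen_orth hχ hψ 1
      rw [h1, mul_one] at h6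
      simp only [mul_one] at h6
      have h7 : ∑ h, algebraMap K ℂ ((a * κ h⁻¹) * ρ.character h) =
          (χ 1 / (Nat.card G : ℂ)) * ∑ h, χ h⁻¹ * chC ρ h := by
        rw [Finset.mul_sum]
        refine Finset.sum_congr rfl fun h _ => ?_
        rw [map_mul, map_mul, ha, hκ]
        simp only [chC]
        ring
      rw [h7]
      have h8 : ∑ h, χ h⁻¹ * chC ρ h = (Nat.card G : ℂ) := mul_right_cancel₀ h5 h6
      rw [h8]
      field_simp
    rw [h0, map_zero, map_zero] at h3
    exact h5 h3.symm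
  have hker : LinearMap.ker E = ⊥ := by
    have hinv : ∀ g, ∀ v ∈ LinearMap.ker E, ρ g v ∈ LinearMap.ker E := by
      intro g v hv
      rw [LinearMap.mem_ker] at hv ⊢
      have h3 := congrArg (fun T : Module.End K V => T v) (hcomm g)
      simp only [Module.End.mul_apply] at h3
      rw [h3, hv, map_zero]
    rcases ((isIrreducible_iff_K ρ).mp hρ).2 _ hinv with h3 | h3
    · exact h3
    · exact absurd (LinearMap.ker_eq_top.mp h3) hEne
  have hEone : E = 1 := by
    ext1 v
    have h3 : E (E v - v) = 0 := by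
      rw [map_sub, ← Module.End.mul_apply, hidem, sub_self]
    have h4 : E v - v ∈ LinearMap.ker E := h3
    rw [hker, Submodule.mem_bot] at h4
    simpa [sub_eq_zero] using h4
  funext g
  have h3 : LinearMap.trace K V (ρ g) = ∑ h, (a * κ h⁻¹) * ρ.character (h * g) := by
    have h4 : ρ g = E * ρ g := by rw [hEone, one_mul]
    conv_lhs => rw [h4, hEapply]
    simp only [map_sum, map_smul, smul_eq_mul]
    rfl
  show algebraMap K ℂ (LinearMap.trace K V (ρ g)) = χ g
  rw [h3, map_sum]
  have h6 := gen_orth hχ hψ g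
  rw [h1, mul_one] at h6
  have h7 : ∑ h, algebraMap K ℂ ((a * κ h⁻¹) * ρ.character (h * g)) =
      (χ 1 / (Nat.card G : ℂ)) * ∑ h, χ h⁻¹ * chC ρ (h * g) := by
    rw [Finset.mul_sum]
    refine Finset.sum_congr rfl fun h _ => ?_
    rw [map_mul, map_mul, ha, hκ]
    simp only [chC]
    ring
  rw [h7]
  field_simp
  rw [mul_comm]
  rw [h6]

/-- Every irreducible character is afforded by a representation over `K`. -/
theorem exists_rep (hroot : ∀ x : ℂ, x ^ Monoid.exponent G = 1 → x ∈ (algebraMap K ℂ).range)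
    {χ : G → ℂ} (hχ : IsIrrCharacter G χ) :
    ∃ (V : Type) (_ : AddCommGroup V) (_ : Module K V) (_ : FiniteDimensional K V) (ρ : Representation K G V),
      chC ρ = χ := by
  obtain ⟨V, i1, i2, i3, ρ, h1, h2⟩ := exists_irr_mult_one (K := K) hroot hχ
  exact ⟨V, i1, i2, i3, ρ, chC_eq_of_mult_one hroot hχ ρ h1 h2⟩

/-- A basis whose matrix entries lie in `K`. -/
def RatBasis (K : Type) [Field K] [Algebra K ℂ] {V : Type} [AddCommGroup V] [Module ℂ V]
    (ρ : Representation ℂ G V) : Prop :=
  ∃ (I : Type) (_ : Fintype I) (_ : DecidableEq I) (b : Basis I ℂ V),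
    ∀ g i j, b.repr (ρ g (b j)) i ∈ (algebraMap K ℂ).range

theorem ratBasis_irr (hroot : ∀ x : ℂ, x ^ Monoid.exponent G = 1 → x ∈ (algebraMap K ℂ).range)
    {V : Type} [AddCommGroup V] [Module ℂ V] [FiniteDimensional ℂ V]
    (ρ : Representation ℂ G V) (h : ρ.IsIrreducible) : RatBasis K ρ := by
  classical
  have hχ := isIrrCharacter_character ρ h
  obtain ⟨V₀, i1, i2, i3, ρ₀, hρ₀⟩ := exists_rep (K := K) hroot hχ
  let σ := matC ρ₀
  have hσ : σ.character = ρ.character := by rw [matC_character, hρ₀]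
  have h1 := classInner_character ρ σ
  rw [hσ, classInner_irr_self hχ] at h1
  have h2 : finrank ℂ (Representation.IntertwiningMap ρ σ) = 1 := by exact_mod_cast h1.symm
  obtain ⟨f, hf⟩ : ∃ f : Representation.IntertwiningMap ρ σ, f ≠ 0 := by
    by_contra hcon
    push Not at hcon
    have : Subsingleton (Representation.IntertwiningMap ρ σ) :=
      ⟨fun a b => (hcon a).trans (hcon b).symm⟩
    have h3 : finrank ℂ (Representation.IntertwiningMap ρ σ) = 0 := finrank_zero_of_subsingleton
    omega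
  haveI := h
  have hinj : Function.Injective f := (Representation.IsIrreducible.injective_or_eq_zero f).resolve_right hf
  have hfin : finrank ℂ V = finrank ℂ (Fin (finrank K V₀) → ℂ) := by
    have h3 := congrFun hσ 1
    simp only [Representation.character, map_one, LinearMap.trace_one] at h3
    exact_mod_cast h3.symm
  have hinj' : Function.Injective f.toLinearMap := hinj
  have hbij : Function.Bijective f.toLinearMap :=
    ⟨hinj', (LinearMap.injective_iff_surjective_of_finrank_eq_finrank hfin).mp hinj'⟩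
  let φ : V ≃ₗ[ℂ] (Fin (finrank K V₀) → ℂ) := LinearEquiv.ofBijective f.toLinearMap hbij
  have hφ : ∀ v, φ v = f v := fun v => rfl
  let b : Basis (Fin (finrank K V₀)) ℂ V := (Pi.basisFun ℂ (Fin (finrank K V₀))).map φ.symm
  refine ⟨Fin (finrank K V₀), inferInstance, inferInstance, b, fun g i j => ?_⟩
  have h3 : b.repr (ρ g (b j)) i = φ (ρ g (b j)) i := by
    simp [b, Basis.map_repr]
  rw [h3, hφ, Representation.IntertwiningMap.isIntertwining]
  have h4 : f (b j) = Pi.single j 1 := by
    rw [← hφ]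
    simp [b]
  rw [h4]
  show (matC ρ₀ g) (Pi.single j 1) i ∈ _
  rw [matC_apply, Matrix.toLin'_apply, Matrix.mulVec_single_one]
  simp

theorem ratBasis_compl {V : Type} [AddCommGroup V] [Module ℂ V]
    (ρ : Representation ℂ G V) (U W : Subrepresentation ρ)
    (h : IsCompl U.toSubmodule W.toSubmodule)
    (hU : RatBasis K U.toRepresentation) (hW : RatBasis K W.toRepresentation) : RatBasis K ρ := by
  classical
  obtain ⟨I₁, f₁, d₁, b₁, h₁⟩ := hU
  obtain ⟨I₂, f₂, d₂, b₂, h₂⟩ := hW
  let e := Submodule.prodEquivOfIsCompl U.toSubmodule W.toSubmodule h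
  let b : Basis (I₁ ⊕ I₂) ℂ V := (b₁.prod b₂).map e
  have hb1 : ∀ j, b (Sum.inl j) = (b₁ j : V) := by
    intro j
    simp [b, e]
  have hb2 : ∀ j, b (Sum.inr j) = (b₂ j : V) := by
    intro j
    simp [b, e]
  have hr1 : ∀ (u : U.toSubmodule) k, b.repr (u : V) k = Sum.elim (b₁.repr u) (0 : I₂ → ℂ) k := by
    intro u k
    have h3 : b.repr (u : V) = (b₁.prod b₂).repr (e.symm u) := by
      simp [b, Basis.map_repr]
    rw [h3, Submodule.prodEquivOfIsCompl_symm_apply_left]
    cases k <;> simp [Basis.prod_repr_inl, Basis.prod_repr_inr]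
  have hr2 : ∀ (u : W.toSubmodule) k, b.repr (u : V) k = Sum.elim (0 : I₁ → ℂ) (b₂.repr u) k := by
    intro u k
    have h3 : b.repr (u : V) = (b₁.prod b₂).repr (e.symm u) := by
      simp [b, Basis.map_repr]
    rw [h3, Submodule.prodEquivOfIsCompl_symm_apply_right]
    cases k <;> simp [Basis.prod_repr_inl, Basis.prod_repr_inr]
  refine ⟨I₁ ⊕ I₂, inferInstance, inferInstance, b, fun g i j => ?_⟩
  cases j with
  | inl j =>
    have h3 : ρ g (b (Sum.inl j)) = ((U.toRepresentation g (b₁ j) : U.toSubmodule) : V) := by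
      rw [hb1]; rfl
    rw [h3, hr1]
    cases i with
    | inl i => exact h₁ g i j
    | inr i => simp
  | inr j =>
    have h3 : ρ g (b (Sum.inr j)) = ((W.toRepresentation g (b₂ j) : W.toSubmodule) : V) := by
      rw [hb2]; rfl
    rw [h3, hr2]
    cases i with
    | inl i => simp
    | inr i => exact h₂ g i j

theorem ratBasis_all (hroot : ∀ x : ℂ, x ^ Monoid.exponent G = 1 → x ∈ (algebraMap K ℂ).range)
    (V : Type) [AddCommGroup V] [Module ℂ V] [FiniteDimensional ℂ V]
    (ρ : Representation ℂ G V) : RatBasis K ρ := by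
  refine rep_induction (P := fun V _ _ _ ρ => RatBasis K ρ) ?_ ?_ ?_ V ρ
  · intro V _ _ _ ρ hV
    refine ⟨PEmpty, inferInstance, inferInstance, Basis.empty V, fun g i j => i.elim⟩
  · intro V _ _ _ ρ h
    exact ratBasis_irr hroot ρ h
  · intro V _ _ _ ρ U W h h₁ h₂
    exact ratBasis_compl ρ U W h h₁ h₂

/-- The matrix form over the field. -/
theorem main_rep (hroot : ∀ x : ℂ, x ^ Monoid.exponent G = 1 → x ∈ (algebraMap K ℂ).range)
    (n : ℕ) (ρ : Representation ℂ G (Fin n → ℂ)) :
    ∃ σ : Representation ℂ G (Fin n → ℂ), Nonempty (ρ.Equiv σ) ∧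
      ∀ g i j, LinearMap.toMatrix' (σ g) i j ∈ (algebraMap K ℂ).range := by
  classical
  obtain ⟨I, i1, i2, b, hb⟩ := ratBasis_all (K := K) hroot _ ρ
  have hcard : Fintype.card I = n := by
    have h1 := Module.finrank_eq_card_basis b
    simpa using h1.symm
  let c : I ≃ Fin n := Fintype.equivFinOfCardEq hcard
  let b' : Basis (Fin n) ℂ (Fin n → ℂ) := b.reindex c
  let φ := b'.equivFun
  refine ⟨transport ρ φ, ⟨transportEquiv ρ φ⟩, fun g i j => ?_⟩
  have h1 : LinearMap.toMatrix' (transport ρ φ g) i j = b.repr (ρ g (b (c.symm j))) (c.symm i) := by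
    rw [LinearMap.toMatrix'_apply, transport_apply]
    have h2 : φ.symm (Pi.single j 1) = b' j := by
      apply φ.injective
      rw [LinearEquiv.apply_symm_apply]
      simp only [φ]
      rw [Basis.equivFun_apply, Basis.repr_self]
      ext k
      simp [Pi.single_apply, Finsupp.single_apply, eq_comm]
    rw [h2]
    simp [φ, b', Basis.equivFun_apply]
  rw [h1]
  exact hb g _ _


end Cfsg.Agent.Lib.SplitField
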