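import Cfsg.Agent.Lib.SplitField.KRep

/-!
# Monomial representations over subfields of the complex numbers, and a generalized orthogonality relation
-/

set_option autoImplicit false
set_option linter.unusedSectionVars false
set_option linter.unusedVariables false
set_option linter.style.haveILetI false

open scoped ComplexConjugate
open Module

namespace Cfsg.Agent.Lib.SplitField

open Cfsg (classInner IsCharacter IsIrrCharacter IrrCharacter IsClassFunction indFun extendByZero)
open Cfsg.Agent.Lib.Char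

universe u v

variable {G : Type u} [Group G] [Fintype G]
variable {K : Type} [Field K] [Algebra K ℂ]

section Mono

variable (E : Subgroup G) (lam : E →* K)

open Classical in
/-- Extension by zero. -/
noncomputable def lamo (x : G) : K := if h : x ∈ E then lam ⟨x, h⟩ else 0

lemma lamo_of_mem {x : G} (h : x ∈ E) : lamo E lam x = lam ⟨x, h⟩ := by
  unfold lamo
  rw [dif_pos h]

lemma lamo_of_not_mem {x : G} (h : x ∉ E) : lamo E lam x = 0 := by
  unfold lamo
  rw [dif_neg h]

lemma lamo_mul (a : G) {b : G} (hb : b ∈ E) : lamo E lam (a * b) = lamo E lam a * lam ⟨b, hb⟩ := by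
  by_cases ha : a ∈ E
  · rw [lamo_of_mem E lam ha, lamo_of_mem E lam (E.mul_mem ha hb), ← map_mul]
    rfl
  · have h1 : a * b ∉ E := fun h => ha (by simpa using E.mul_mem h (E.inv_mem hb))
    rw [lamo_of_not_mem E lam ha, lamo_of_not_mem E lam h1, zero_mul]

lemma lamo_conj (a : G) {e : G} (he : e ∈ E) : lamo E lam (e⁻¹ * a * e) = lamo E lam a := by
  by_cases ha : a ∈ E
  · have h1 : e⁻¹ * a * e ∈ E := E.mul_mem (E.mul_mem (E.inv_mem he) ha) he
    rw [lamo_of_mem E lam ha, lamo_of_mem E lam h1]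
    have h2 : (⟨e⁻¹ * a * e, h1⟩ : E) = (⟨e, he⟩ : E)⁻¹ * ⟨a, ha⟩ * ⟨e, he⟩ := rfl
    have h3 : lam (⟨e, he⟩ : E)⁻¹ * lam ⟨e, he⟩ = 1 := by
      rw [← map_mul, inv_mul_cancel, map_one]
    rw [h2, map_mul, map_mul]
    linear_combination (lam ⟨a, ha⟩) * h3
  · have h1 : e⁻¹ * a * e ∉ E := by
      intro h
      apply ha
      have h2 := E.mul_mem (E.mul_mem he h) (E.inv_mem he)
      have h3 : e * (e⁻¹ * a * e) * e⁻¹ = a := by group
      rwa [h3] at h2
    rw [lamo_of_not_mem E lam ha, lamo_of_not_mem E lam h1]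

/-- The enumeration of the cosets. -/
noncomputable def cosetEnum : Fin (Nat.card (G ⧸ E)) ≃ G ⧸ E := (Finite.equivFin (G ⧸ E)).symm

/-- The coset representatives. -/
noncomputable def cosetRep (i : Fin (Nat.card (G ⧸ E))) : G := Quotient.out (cosetEnum E i)

/-- The monomial matrices. -/
noncomputable def monoMat (g : G) : Matrix (Fin (Nat.card (G ⧸ E))) (Fin (Nat.card (G ⧸ E))) K :=
  fun y x => lamo E lam ((cosetRep E y)⁻¹ * g * cosetRep E x)

lemma rep_mem_iff {y : Fin (Nat.card (G ⧸ E))} {z : G} :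
    (cosetRep E y)⁻¹ * z ∈ E ↔ cosetEnum E y = (z : G ⧸ E) := by
  unfold cosetRep
  rw [← QuotientGroup.eq, QuotientGroup.out_eq']

lemma monoMat_one : monoMat E lam 1 = 1 := by
  ext y x
  rw [Matrix.one_apply]
  unfold monoMat
  by_cases h : y = x
  · subst h
    rw [if_pos rfl, mul_one, inv_mul_cancel, lamo_of_mem E lam E.one_mem]
    exact map_one lam
  · rw [if_neg h, mul_one, lamo_of_not_mem]
    intro h2
    rw [rep_mem_iff] at h2
    apply h
    apply (cosetEnum E).injective
    rw [h2]
    unfold cosetRep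
    rw [QuotientGroup.out_eq']

lemma monoMat_mul (g h : G) : monoMat E lam (g * h) = monoMat E lam g * monoMat E lam h := by
  ext y x
  rw [Matrix.mul_apply, Finset.sum_eq_single ((cosetEnum E).symm ((h * cosetRep E x : G) : G ⧸ E))]
  · unfold monoMat
    set z := (cosetEnum E).symm ((h * cosetRep E x : G) : G ⧸ E) with hz
    have hb : (cosetRep E z)⁻¹ * h * cosetRep E x ∈ E := by
      rw [mul_assoc, rep_mem_iff, hz, Equiv.apply_symm_apply]
    rw [lamo_of_mem E lam hb, ← lamo_mul]
    congr 1
    group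
  · intro z _ hz
    have : monoMat E lam h z x = 0 := by
      unfold monoMat
      apply lamo_of_not_mem
      rw [mul_assoc, rep_mem_iff]
      intro h2
      apply hz
      rw [← h2, Equiv.symm_apply_apply]
    rw [this, mul_zero]
  · intro h0
    exact absurd (Finset.mem_univ _) h0

/-- The monomial representation. -/
noncomputable def monoRep : Representation K G (Fin (Nat.card (G ⧸ E)) → K) :=
  (Matrix.toLinAlgEquiv' (R := K) (n := Fin (Nat.card (G ⧸ E)))).toAlgHom.toMonoidHom.comp
    { toFun := monoMat E lam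
      map_one' := monoMat_one E lam
      map_mul' := monoMat_mul E lam }

lemma monoRep_apply (g : G) : monoRep E lam g = Matrix.toLin' (monoMat E lam g) := rfl

/-- Sums over a group of functions invariant under the right cosets. -/
lemma sum_coset (F : G → ℂ) (hF : ∀ x, ∀ e ∈ E, F (x * e) = F x) :
    ∑ x, F x = (Nat.card E : ℂ) * ∑ y, F (cosetRep E y) := by
  classical
  have hfin : Fintype (G ⧸ E) := Fintype.ofFinite _
  rw [← Equiv.sum_comp (cosetEnum E).symm (fun y => F (cosetRep E y))]
  rw [← Finset.sum_fiberwise Finset.univ (fun x : G => (x : G ⧸ E)) F, Finset.mul_sum]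
  refine Finset.sum_congr rfl fun y _ => ?_
  have hmemiff : ∀ x : G, (x : G ⧸ E) = y ↔ (Quotient.out y)⁻¹ * x ∈ E := by
    intro x
    rw [← QuotientGroup.eq, QuotientGroup.out_eq', eq_comm]
  have h1 : ∀ x ∈ Finset.univ.filter (fun x : G => (x : G ⧸ E) = y), F x = F (Quotient.out y) := by
    intro x hx
    have hx' : (x : G ⧸ E) = y := by simpa using hx
    have hmem := (hmemiff x).mp hx'
    have := hF (Quotient.out y) _ hmem
    rw [← this]
    congr 1
    group
  have hrep : cosetRep E ((cosetEnum E).symm y) = Quotient.out y := by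
    unfold cosetRep
    rw [Equiv.apply_symm_apply]
  rw [Finset.sum_congr rfl h1, Finset.sum_const, nsmul_eq_mul, hrep]
  congr 2
  rw [Nat.card_eq_fintype_card, ← Finset.card_univ]
  symm
  apply Finset.card_bij (fun (e : E) _ => Quotient.out y * (e : G))
  · intro e _
    simp only [Finset.mem_filter, Finset.mem_univ, true_and]
    rw [hmemiff]
    simp
  · intro a _ b _ h
    exact Subtype.ext (mul_left_cancel h)
  · intro x hx
    have hx' : (x : G ⧸ E) = y := by simpa using hx
    have hmem := (hmemiff x).mp hx'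
    exact ⟨⟨_, hmem⟩, Finset.mem_univ _, by simp⟩

/-- The character of the monomial representation. -/
theorem chC_monoRep : chC (monoRep E lam) = indFun E (fun e => algebraMap K ℂ (lam e)) := by
  funext g
  have hext : ∀ z : G, extendByZero E (fun e => algebraMap K ℂ (lam e)) z = algebraMap K ℂ (lamo E lam z) := by
    intro z
    by_cases hz : z ∈ E
    · rw [extendByZero_of_mem E _ hz, lamo_of_mem E lam hz]
    · rw [extendByZero_of_not_mem E _ hz, lamo_of_not_mem E lam hz, map_zero]
  rw [indFun_apply]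
  simp only [hext]
  rw [sum_coset E (fun x => algebraMap K ℂ (lamo E lam (x⁻¹ * g * x)))]
  · rw [← mul_assoc, inv_mul_cancel₀ (card_subgroup_ne_zero E), one_mul]
    show algebraMap K ℂ (LinearMap.trace K _ (monoRep E lam g)) = _
    rw [monoRep_apply, Matrix.trace_toLin'_eq, Matrix.trace, map_sum]
    rfl
  · intro x e he
    show algebraMap K ℂ _ = algebraMap K ℂ _
    have h1 : (x * e)⁻¹ * g * (x * e) = e⁻¹ * (x⁻¹ * g * x) * e := by group
    rw [h1, lamo_conj E lam _ he]

end Mono

section Orth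

/-- Generalized orthogonality for irreducible characters. -/
theorem gen_orth_irr {χ θ : G → ℂ} (hχ : IsCharacter G χ) (hθ : IsIrrCharacter G θ) (g : G) :
    (∑ h, χ h⁻¹ * θ (h * g)) * θ 1 = (Nat.card G : ℂ) * classInner θ χ * θ g := by
  classical
  obtain ⟨n, R, hR, rfl⟩ := hθ
  let Z : Module.End ℂ (Fin n → ℂ) := ∑ h, χ h⁻¹ • R h
  have hclass := IsCharacter.isClassFunction hχ
  have hcomm : ∀ x v, Z (R x v) = R x (Z v) := by
    intro x v
    simp only [Z, LinearMap.sum_apply, LinearMap.smul_apply, map_sum, map_smul]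
    rw [← Equiv.sum_comp (MulAut.conj x).toEquiv]
    refine Finset.sum_congr rfl fun k _ => ?_
    simp only [MulEquiv.toEquiv_eq_coe, EquivLike.coe_coe, MulAut.conj_apply]
    have h1 : (x * k * x⁻¹)⁻¹ = x * k⁻¹ * x⁻¹ := by group
    rw [h1, hclass k⁻¹ x]
    congr 1
    rw [← Module.End.mul_apply, ← map_mul, ← Module.End.mul_apply, ← map_mul]
    congr 2
    group
  obtain ⟨c, hc⟩ := schur_scalar R hR Z hcomm
  have h1 : LinearMap.trace ℂ _ Z = ∑ h, χ h⁻¹ * R.character h := by
    simp only [Z, map_sum, map_smul, smul_eq_mul]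
    rfl
  have h2 : LinearMap.trace ℂ _ Z = c * R.character 1 := by
    have h6 : R.character 1 = LinearMap.trace ℂ _ (1 : Module.End ℂ (Fin n → ℂ)) := by
      show LinearMap.trace ℂ _ (R 1) = _
      rw [show R 1 = 1 from map_one R]
    rw [hc, map_smul, smul_eq_mul, h6]
  have h3 : ∑ h, χ h⁻¹ * R.character (h * g) = c * R.character g := by
    have h4 : LinearMap.trace ℂ _ (Z * R g) = ∑ h, χ h⁻¹ * R.character (h * g) := by
      simp only [Z, Finset.sum_mul, map_sum, smul_mul_assoc, map_smul, smul_eq_mul]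
      refine Finset.sum_congr rfl fun h _ => ?_
      rw [← map_mul]
      rfl
    rw [← h4, hc, smul_mul_assoc, one_mul, map_smul, smul_eq_mul]
    rfl
  have h5 : (Nat.card G : ℂ) * classInner R.character χ = ∑ h, χ h⁻¹ * R.character h := by
    rw [Cfsg.Agent.Lib.Char.classInner_def, ← mul_assoc, mul_inv_cancel₀ (card_ne_zero_complex G), one_mul]
    refine Finset.sum_congr rfl fun h _ => ?_
    rw [IsCharacter.map_inv' hχ, mul_comm]
  rw [h3, h5, ← h1, h2]
  ring

/-- Generalized orthogonality. -/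
theorem gen_orth {χ ψ : G → ℂ} (hχ : IsIrrCharacter G χ) (hψ : IsCharacter G ψ) (g : G) :
    (∑ h, χ h⁻¹ * ψ (h * g)) * χ 1 = (Nat.card G : ℂ) * classInner ψ χ * χ g := by
  classical
  have hχ' := IsIrrCharacter.isCharacter hχ
  have h1 := classFunction_eq_sum ψ (IsCharacter.isClassFunction hψ)
  have h2 : ∀ h, ψ h = ∑ θ : IrrCharacter G, classInner ψ (θ : G → ℂ) * (θ : G → ℂ) h := by
    intro h
    conv_lhs => rw [h1]
    simp [Finset.sum_apply]
  have h3 : ∑ h, χ h⁻¹ * ψ (h * g) =
      ∑ θ : IrrCharacter G, classInner ψ (θ : G → ℂ) * ∑ h, χ h⁻¹ * (θ : G → ℂ) (h * g) := by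
    simp only [h2, Finset.mul_sum]
    rw [Finset.sum_comm]
    refine Finset.sum_congr rfl fun θ _ => Finset.sum_congr rfl fun h _ => ?_
    ring
  rw [h3, Finset.sum_eq_single (⟨χ, hχ⟩ : IrrCharacter G)]
  · have h4 := gen_orth_irr hχ' hχ g
    rw [classInner_irr_self hχ, mul_one] at h4
    show classInner ψ χ * (∑ h, χ h⁻¹ * χ (h * g)) * χ 1 = _
    rw [mul_assoc, h4]
    ring
  · intro θ _ hθ
    have h5 := gen_orth_irr hχ' θ.2 g
    have hne : (θ : G → ℂ) ≠ χ := fun h => hθ (Subtype.ext h)
    rw [classInner_irr_of_ne θ.2 hχ hne, mul_zero, zero_mul] at h5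
    have h6 := map_one_ne_zero_of_irr θ.2
    have h7 : ∑ h, χ h⁻¹ * (θ : G → ℂ) (h * g) = 0 := by
      rcases mul_eq_zero.mp h5 with h8 | h8
      · exact h8
      · exact absurd h8 h6
    rw [h7, mul_zero]
  · intro h0
    exact absurd (Finset.mem_univ _) h0

end Orth

end Cfsg.Agent.Lib.SplitField
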